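import Cfsg.Agent.LeU.J3D
import Cfsg.Agent.Comp.J3.Iso

/-! The vectors of the space of dimension 9 over the field with four elements, coded as numbers. -/

set_option autoImplicit false
set_option maxRecDepth 100000

namespace Cfsg.Agent.LeU.J3
open Cfsg.Agent.Comp Cfsg.Agent.Comp.J3 Matrix

/-- a bit as a field element -/
def bt (b : Bool) : K4 := if b then 1 else 0

/-- the vector coded by a number -/
def dec (n : ℕ) : Spor.F9 → K4 :=
  fun z => bt (n.testBit (en z)) + bt (n.testBit (9 + en z)) * w4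

/-- the matrix letters of the four networks -/
def ix (x : ℕ) : ℕ := [16, 28, 38, 46].getD x 0

/-- the rows -/
def row (x k : ℕ) : ℕ := (A.getD x []).getD k 0

theorem bt_xor : ∀ a b, bt (xor a b) = bt a + bt b := by decide +kernel

theorem bt_true : bt true = 1 := rfl

theorem bt_false : bt false = 0 := rfl

theorem bt_inj : ∀ a b c d, bt a + bt b * w4 = bt c + bt d * w4 → a = c ∧ b = d := by
  decide +kernel

theorem bt_cube : ∀ a b, (bt a + bt b * w4) ^ 3 = bt (a || b) := by decide +kernel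

theorem bt_eq_zero : ∀ a, bt a = 0 → a = false := by decide +kernel

theorem pl_bit {k n : ℕ} (hk : k < 18) (hn : n < 262144) : (pl k).testBit n = n.testBit k :=
  testBit_plane (by norm_num) hk hn

theorem xs_succ (a L : ℕ) :
    xs a (L + 1) = if a.testBit L then Nat.xor (pl L) (xs a L) else xs a L := by
  show @Bool.rec (fun _ => Nat) (xs a L) (Nat.xor (pl L) (xs a L)) (Nat.testBit a L) = _
  cases a.testBit L <;> rfl

theorem xs_bit (a : ℕ) {n : ℕ} (hn : n < 262144) : ∀ L, L ≤ 18 →
    bt ((xs a L).testBit n) = ∑ l ∈ Finset.range L, bt (n.testBit l) * bt (a.testBit l)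
  | 0, _ => by
    show bt (Nat.testBit 0 n) = _
    simp [bt_false]
  | L + 1, h => by
    rw [Finset.sum_range_succ, ← xs_bit a hn L (by omega), xs_succ]
    cases a.testBit L
    · simp [bt_false]
    · have : Nat.xor (pl L) (xs a L) = pl L ^^^ xs a L := rfl
      simp only [if_true, this, Nat.testBit_xor, bt_xor, pl_bit (show L < 18 by omega) hn, bt_true]
      ring

theorem sum_pick (f : ℕ → K4) {k : ℕ} (hk : k < 18) :
    ∑ l ∈ Finset.range 18, f l * bt ((2 ^ l).testBit k) = f k := by
  rw [Finset.sum_eq_single k]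
  · rw [Nat.testBit_two_pow_self, bt_true, mul_one]
  · intro b _ hb
    rw [Nat.testBit_two_pow_of_ne hb, bt_false, mul_zero]
  · intro h; exact absurd (Finset.mem_range.mpr hk) h

theorem dec_sum (n : ℕ) : dec n = ∑ l ∈ Finset.range 18, bt (n.testBit l) • dec (2 ^ l) := by
  funext z
  have := en_lt z
  rw [Finset.sum_apply]
  simp only [Pi.smul_apply, smul_eq_mul, dec, mul_add, Finset.sum_add_distrib, ← mul_assoc,
    ← Finset.sum_mul]
  rw [sum_pick (fun l => bt (n.testBit l)) (by omega),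
    sum_pick (fun l => bt (n.testBit l)) (by omega)]

theorem chk : ∀ x < 4, ∀ l < 18, ∀ z, (Mm (ix x) *ᵥ dec (2 ^ l)) z =
    bt ((row x (en z)).testBit l) + bt ((row x (9 + en z)).testBit l) * w4 := by
  decide +kernel

theorem sig_bit {x k n : ℕ} (hx : x < 4) (hk : k < 18) (hn : n < 262144) :
    (sig T x n).testBit k = (xs (row x k) 18).testBit n := by
  have h := Nat.eq_of_beq_eq_true (lin x hx k hk)
  have h2 := testBit_runW1 ok [x] (pl k) hn
  rw [h, ev_single, pl_bit hk (Bd.lt (ok.sig_mem x) hn)] at h2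
  exact h2.symm

theorem dec_sig {x n : ℕ} (hx : x < 4) (hn : n < 262144) :
    dec (sig T x n) = Mm (ix x) *ᵥ dec n := by
  funext z
  have := en_lt z
  rw [dec_sum n, Matrix.mulVec_sum, Finset.sum_apply, dec, sig_bit hx (by omega) hn,
    sig_bit hx (by omega) hn, xs_bit _ hn 18 le_rfl, xs_bit _ hn 18 le_rfl, Finset.sum_mul,
    ← Finset.sum_add_distrib]
  refine Finset.sum_congr rfl fun l hl => ?_
  rw [Matrix.mulVec_smul, Pi.smul_apply, chk x hx l (Finset.mem_range.mp hl), smul_eq_mul]
  ring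

theorem en_surj : ∀ l < 9, ∃ z, en z = l := by decide

theorem dec_inj {n m : ℕ} (hn : n < 262144) (hm : m < 262144) (h : dec n = dec m) : n = m := by
  refine Nat.eq_of_testBit_eq fun l => ?_
  by_cases h1 : l < 9
  · obtain ⟨z, rfl⟩ := en_surj l h1
    exact (bt_inj _ _ _ _ (congrFun h z)).1
  by_cases h2 : l < 18
  · obtain ⟨z, hz⟩ := en_surj (l - 9) (by omega)
    have := (bt_inj _ _ _ _ (congrFun h z)).2
    rwa [hz, show 9 + (l - 9) = l by omega] at this
  · have : (262144 : ℕ) ≤ 2 ^ l :=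
      (show (262144 : ℕ) = 2 ^ 18 by norm_num) ▸ Nat.pow_le_pow_right (by norm_num) (by omega)
    rw [Nat.testBit_lt_two_pow (by omega), Nat.testBit_lt_two_pow (by omega)]

theorem od_bit {n : ℕ} (hn : n < 262144) : ∀ L, L ≤ 9 →
    bt ((od L).testBit n) = ∑ l ∈ Finset.range L, bt (n.testBit l || n.testBit (9 + l))
  | 0, _ => by
    show bt (Nat.testBit 0 n) = _
    simp [bt_false]
  | L + 1, h => by
    rw [Finset.sum_range_succ, ← od_bit hn L (by omega)]
    show bt (Nat.testBit ((pl L ||| pl (9 + L)) ^^^ od L) n) = _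
    rw [Nat.testBit_xor, Nat.testBit_or, bt_xor, pl_bit (show L < 18 by omega) hn,
      pl_bit (show 9 + L < 18 by omega) hn, add_comm]

theorem range_nine : Finset.range 9 = Finset.univ.image en := by decide

theorem en_inj : ∀ a b, en a = en b → a = b := by decide

theorem cube_sum {n : ℕ} (hn : n < 262144) : ∑ z, dec n z ^ 3 = bt ((od 9).testBit n) := by
  rw [od_bit hn 9 le_rfl, range_nine, Finset.sum_image fun a _ b _ h => en_inj a b h]
  exact Finset.sum_congr rfl fun z _ => bt_cube _ _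

theorem dec_one : dec 1 = Pi.single 0 1 := by decide +kernel

theorem dec_zero : dec 0 = 0 := by decide +kernel

theorem units4 : ∀ c : K4, c ≠ 0 → c = 1 ∨ c = w4 ∨ c = w4 * w4 := by decide +kernel

theorem mem_S2 {n : ℕ} (hn : n < 262144) (h0 : n ≠ 0) (h : ∑ z, dec n z ^ 3 = 0) :
    ∃ σ ∈ genW (sig T) W, σ 3 = n := by
  rw [cube_sum hn] at h
  have h1 := bt_eq_zero _ h
  have h2 := congrArg (fun x => Nat.testBit x n) (Nat.eq_of_beq_eq_true cov2)
  have e : ∀ a b : ℕ, Nat.lor a b = a ||| b := fun _ _ => rfl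
  simp only [e, Nat.testBit_or, h1, testBit_pt, testBit_ivl] at h2
  have h3 : S2.testBit n = true := by
    have a1 : decide (nat_lit 0 = n) = false := decide_eq_false fun h => h0 h.symm
    have a2 : decide (nat_lit 0 ≤ n ∧ n < nat_lit 0 + nat_lit 262144) = true :=
      decide_eq_true ⟨Nat.zero_le _, hn⟩
    rw [a1, a2] at h2
    simpa using h2
  obtain ⟨p, hp, σ, hσ, e⟩ := grow_orbit ok (le_refl (genW (sig T) W)) sch2 (pt (nat_lit 3)) n ⟨hn, h3⟩
  have : p = 3 := by
    have := hp.2
    rw [testBit_pt] at this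
    exact (of_decide_eq_true this).symm
  exact ⟨σ, hσ, this ▸ e⟩

theorem orbit1 : MulAction.orbit (genW (sig T) W) (1 : ℕ) = bset 262144 S1 :=
  orbit_eq_bset (sch := sch1) ok (by norm_num) mem1' (Nat.beq_refl _) inv1

theorem ncard1 : (bset 262144 S1).ncard = 69768 := by
  have h : S1 < 2 ^ 262144 := by
    have := Nat.eq_of_beq_eq_true lt1
    have h2 : S1 >>> 262144 = 0 := this
    rw [Nat.shiftRight_eq_div_pow] at h2
    exact (Nat.div_eq_zero_iff_lt (Nat.two_pow_pos _)).mp h2
  rw [ncard_bset (l := 18) (by norm_num) h]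
  exact Nat.eq_of_beq_eq_true cnt1

end Cfsg.Agent.LeU.J3
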