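import Cfsg.Agent.LeU.J3V

/-! Orbits of the triple cover of the third Janko group on vectors and lines. -/

set_option autoImplicit false
set_option maxRecDepth 100000

namespace Cfsg.Agent.LeU.J3
open Cfsg.Agent.Comp Cfsg.Agent.Comp.J3 Matrix

variable {F : Type} [Field F] {ω : F} {ι : K4 →+* F}

/-- the vector over `F` coded by a number -/
def decF (ι : K4 →+* F) (n : ℕ) : Spor.F9 → F := ι ∘ dec n

theorem decF_sig (ι : K4 →+* F) {x n : ℕ} (hx : x < 4) (hn : n < 262144) :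
    decF ι (sig T x n) = mF ι (ix x) *ᵥ decF ι n := by
  funext z
  rw [decF, decF, dec_sig hx hn, mF_eq, Function.comp_apply, RingHom.map_mulVec]
  rfl

theorem decF_inj (ι : K4 →+* F) {n m : ℕ} (hn : n < 262144) (hm : m < 262144)
    (h : decF ι n = decF ι m) : n = m :=
  dec_inj hn hm (funext fun z => ι.injective (congrFun h z))

theorem decF_surj [Fintype F] (hF : Fintype.card F = 4) (ι : K4 →+* F) (v : Spor.F9 → F) :
    ∃ n < 262144, decF ι n = v := by
  classical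
  have hb : Function.Bijective (fun n : Fin 262144 => decF ι n) := by
    refine (Fintype.bijective_iff_injective_and_card _).mpr ⟨fun a b h => Fin.ext
      (decF_inj ι a.2 b.2 h), ?_⟩
    rw [Fintype.card_fin, Fintype.card_fun, hF]
    simp
  obtain ⟨n, hn⟩ := hb.2 v
  exact ⟨n, n.2, hn⟩

/-- pairs of a matrix and a permutation of the codes that agree -/
def KK (ι : K4 →+* F) : Subgroup (GL Spor.F9 F × Equiv.Perm ℕ) where
  carrier := {p | p.2 ∈ Bd 262144 ∧ ∀ n < 262144,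
    decF ι (p.2 n) = (p.1 : Matrix Spor.F9 Spor.F9 F) *ᵥ decF ι n}
  mul_mem' := fun {a b} ha hb => ⟨(Bd _).mul_mem ha.1 hb.1, fun n hn => by
    rw [Prod.snd_mul, Prod.fst_mul, Equiv.Perm.mul_apply, ha.2 _ (Bd.lt hb.1 hn), hb.2 n hn,
      Units.val_mul, Matrix.mulVec_mulVec]⟩
  one_mem' := ⟨(Bd _).one_mem, fun n _ => by simp⟩
  inv_mem' := fun {a} ha => ⟨(Bd _).inv_mem ha.1, fun n hn => by
    have h := ha.2 _ (Bd.lt ((Bd _).inv_mem ha.1) hn)
    rw [show a.2 (a.2⁻¹ n) = n by simp] at h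
    rw [Prod.snd_inv, Prod.fst_inv, h, Matrix.mulVec_mulVec, ← Units.val_mul, inv_mul_cancel,
      Units.val_one, Matrix.one_mulVec]⟩

/-- the group generated by the four pairs -/
noncomputable def LL (ι : K4 →+* F) : Subgroup (GL Spor.F9 F × Equiv.Perm ℕ) :=
  genW (fun x => (glS (mF ι) (ix x), sig T x)) W

theorem LL_le (ι : K4 →+* F) : LL ι ≤ KK ι := by
  have h : ∀ x < 4, (glS (mF ι) (ix x), sig T x) ∈ KK ι := fun x hx =>
    ⟨ok.sig_mem x, fun n hn => by
      rw [glS_val (unitF ι _ ((by decide : ∀ x < 4, ix x < 52) x hx))]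
      exact decF_sig ι hx hn⟩
  refine genW_le.mpr ?_
  simp only [W, List.forall_mem_cons, ev_single, List.not_mem_nil, IsEmpty.forall_iff,
    implies_true, and_true]
  exact ⟨h 0 (by norm_num), h 1 (by norm_num), h 2 (by norm_num), h 3 (by norm_num)⟩

theorem LL_fst (h : ι w4 = ω) : (LL ι).map (MonoidHom.fst _ _) = Spor.threeJ3 F ω := by
  rw [LL, Comp.map_genW, ← gen_eq h]
  have hE := eqsF ι
  apply le_antisymm
  · have h1 : gen (glS (mF ι)) 52 ≤ gen (glS (mF ι)) 7 := le_of_subOK hE (by decide +kernel)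
    refine genW_le.mpr ?_
    simp only [W, List.forall_mem_cons, ev_single, List.not_mem_nil, IsEmpty.forall_iff,
      implies_true, and_true]
    exact ⟨h1 (letter_mem_gen (by decide)), h1 (letter_mem_gen (by decide)),
      h1 (letter_mem_gen (by decide)), h1 (letter_mem_gen (by decide))⟩
  · refine (le_of_subOK (W := [[16], [28], [38], [46]]) hE (by decide +kernel)).trans
      (genW_le.mpr ?_)
    simp only [List.forall_mem_cons, ev_single, List.not_mem_nil, IsEmpty.forall_iff,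
      implies_true, and_true]
    exact ⟨letter_mem_genW (s := fun x => glS (mF ι) (ix x)) (x := 0) (by decide),
      letter_mem_genW (s := fun x => glS (mF ι) (ix x)) (x := 1) (by decide),
      letter_mem_genW (s := fun x => glS (mF ι) (ix x)) (x := 2) (by decide),
      letter_mem_genW (s := fun x => glS (mF ι) (ix x)) (x := 3) (by decide)⟩

theorem LL_snd (ι : K4 →+* F) : (LL ι).map (MonoidHom.snd _ _) = genW (sig T) W := by
  rw [LL, Comp.map_genW]; rfl

theorem of_mat (h : ι w4 = ω) {g : GL Spor.F9 F} (hg : g ∈ Spor.threeJ3 F ω) :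
    ∃ σ ∈ genW (sig T) W, (g, σ) ∈ KK ι := by
  rw [← LL_fst h] at hg
  obtain ⟨p, hp, rfl⟩ := hg
  exact ⟨p.2, LL_snd ι ▸ Subgroup.mem_map_of_mem _ hp, LL_le ι hp⟩

theorem of_perm (h : ι w4 = ω) {σ : Equiv.Perm ℕ} (hσ : σ ∈ genW (sig T) W) :
    ∃ g ∈ Spor.threeJ3 F ω, (g, σ) ∈ KK ι := by
  rw [← LL_snd ι] at hσ
  obtain ⟨p, hp, rfl⟩ := hσ
  exact ⟨p.1, LL_fst h ▸ Subgroup.mem_map_of_mem _ hp, LL_le ι hp⟩

theorem decF_one (ι : K4 →+* F) : decF ι 1 = Pi.single 0 1 := by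
  funext z
  rw [decF, dec_one, Function.comp_apply]
  by_cases hz : z = 0
  · subst hz; simp
  · simp [Pi.single_eq_of_ne hz]

/-- the orbit of the first basis vector -/
def orb (F : Type) [Field F] (ω : F) : Set (Spor.F9 → F) :=
  {v | ∃ g ∈ Spor.threeJ3 F ω, v = (g : Matrix Spor.F9 Spor.F9 F) *ᵥ Pi.single 0 1}

theorem orb_eq (h : ι w4 = ω) : orb F ω = decF ι '' bset 262144 S1 := by
  rw [← orbit1]
  ext v
  constructor
  · rintro ⟨g, hg, rfl⟩
    obtain ⟨σ, hσ, hK⟩ := of_mat h hg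
    exact ⟨σ 1, ⟨⟨σ, hσ⟩, rfl⟩, by rw [hK.2 1 (by norm_num), decF_one]⟩
  · rintro ⟨n, ⟨⟨σ, hσ⟩, rfl⟩, rfl⟩
    obtain ⟨g, hg, hK⟩ := of_perm h hσ
    exact ⟨g, hg, by rw [← decF_one ι]; exact hK.2 1 (by norm_num)⟩

theorem orb_ncard (h : ι w4 = ω) : (orb F ω).ncard = 69768 := by
  rw [orb_eq h, Set.InjOn.ncard_image fun a ha b hb e => decF_inj ι ha.1 hb.1 e, ncard1]

theorem orb_ne {v : Spor.F9 → F} (hv : v ∈ orb F ω) : v ≠ 0 := by
  obtain ⟨g, -, rfl⟩ := hv
  intro e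
  have := congrArg (fun w => ((g⁻¹ : GL Spor.F9 F) : Matrix Spor.F9 Spor.F9 F) *ᵥ w) e
  simp only [Matrix.mulVec_mulVec, ← Units.val_mul, inv_mul_cancel, Units.val_one,
    Matrix.one_mulVec, Matrix.mulVec_zero] at this
  simpa using congrFun this 0

theorem orb_omega (h : ι w4 = ω) {v : Spor.F9 → F} (hv : v ∈ orb F ω) : ω • v ∈ orb F ω := by
  obtain ⟨g, hg, rfl⟩ := hv
  have h6 : mF ι 6 = ω • (1 : Matrix Spor.F9 Spor.F9 F) := by
    rw [mF_eq, mz]; ext i j; simp [Matrix.one_apply, apply_ite ι, h]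
  refine ⟨glS (mF ι) 6 * g, Subgroup.mul_mem _ ((gen_eq h).le (letter_mem_gen (by norm_num))) hg, ?_⟩
  rw [Units.val_mul, glS_val (unitF ι 6 (by norm_num)), h6, ← Matrix.mulVec_mulVec,
    Matrix.smul_mulVec, Matrix.one_mulVec]

theorem orb_smul [Fintype F] (hF : Fintype.card F = 4) (h : ι w4 = ω) {v : Spor.F9 → F}
    (hv : v ∈ orb F ω) (c : Fˣ) : (c : F) • v ∈ orb F ω := by
  have hb : Function.Bijective ι :=
    (Fintype.bijective_iff_injective_and_card _).mpr ⟨ι.injective, card_K4.trans hF.symm⟩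
  obtain ⟨d, hd⟩ := hb.2 c
  have h0 : d ≠ 0 := by
    rintro rfl
    exact c.ne_zero (by rw [← hd, map_zero])
  rcases units4 d h0 with rfl | rfl | rfl
  · rw [← hd, map_one, one_smul]; exact hv
  · rw [← hd, h]; exact orb_omega h hv
  · rw [← hd, map_mul, h, mul_smul]; exact orb_omega h (orb_omega h hv)

theorem lines [Fintype F] (hF : Fintype.card F = 4) (h : ι w4 = ω) :
    ((fun v : Spor.F9 → F => F ∙ v) '' orb F ω).ncard = 23256 := by
  classical
  have hs := Finset.card_eq_sum_card_image (fun v : Spor.F9 → F => F ∙ v)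
    (orb F ω).toFinite.toFinset
  have h3 : ∀ b ∈ (orb F ω).toFinite.toFinset.image (fun v : Spor.F9 → F => F ∙ v),
      ((orb F ω).toFinite.toFinset.filter (fun v => (F ∙ v) = b)).card = 3 := by
    intro b hb
    obtain ⟨v, hv, rfl⟩ := Finset.mem_image.mp hb
    rw [Set.Finite.mem_toFinset] at hv
    have : (orb F ω).toFinite.toFinset.filter (fun u => (F ∙ u) = F ∙ v) =
        Finset.univ.image fun c : Fˣ => (c : F) • v := by
      ext u
      simp only [Finset.mem_filter, Set.Finite.mem_toFinset, Finset.mem_image, Finset.mem_univ,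
        true_and]
      constructor
      · rintro ⟨-, e⟩
        obtain ⟨c, hc⟩ := Submodule.span_singleton_eq_span_singleton.mp e.symm
        exact ⟨c, hc⟩
      · rintro ⟨c, rfl⟩
        exact ⟨orb_smul hF h hv c, Submodule.span_singleton_smul_eq c.isUnit v⟩
    rw [this, Finset.card_image_of_injective _ fun c d e =>
      Units.ext (smul_left_injective F (orb_ne hv) e), Finset.card_univ, Fintype.card_units, hF]
  rw [Finset.sum_const_nat h3, ← Set.ncard_eq_toFinset_card, orb_ncard h] at hs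
  rw [← (orb F ω).toFinite.coe_toFinset, ← Finset.coe_image, Set.ncard_coe_finset]
  omega

theorem iso_orb [Fintype F] (hF : Fintype.card F = 4) (h : ι w4 = ω) {v : Spor.F9 → F}
    (h0 : v ≠ 0) (hv : ∑ z, v z ^ 3 = 0) :
    ∃ g ∈ Spor.threeJ3 F ω, (g : Matrix Spor.F9 Spor.F9 F) *ᵥ decF ι 3 = v := by
  obtain ⟨n, hn, rfl⟩ := decF_surj hF ι v
  have hn0 : n ≠ 0 := by
    rintro rfl
    exact h0 (by funext z; simp [decF, dec_zero])
  have h1 : ∑ z, dec n z ^ 3 = 0 := ι.injective (by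
    rw [map_sum, map_zero, ← hv]
    exact Finset.sum_congr rfl fun z _ => by rw [map_pow]; rfl)
  obtain ⟨σ, hσ, e⟩ := mem_S2 hn hn0 h1
  obtain ⟨g, hg, hK⟩ := of_perm h hσ
  exact ⟨g, hg, by rw [← e]; exact (hK.2 3 (by norm_num)).symm⟩

theorem main (F : Type) [Field F] [Fintype F] (hF : Fintype.card F = 4) (ω : F)
    (hω : ω ^ 2 + ω + 1 = 0) :
    {L : Submodule F (Spor.F9 → F) | ∃ g ∈ Spor.threeJ3 F ω,
      L = F ∙ ((g : Matrix Spor.F9 Spor.F9 F) *ᵥ (Pi.single (0 : Spor.F9) (1 : F) :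
        Spor.F9 → F))}.ncard = 23256 ∧
    ∀ v w : Spor.F9 → F, v ≠ 0 → w ≠ 0 → ∑ z, (v z) ^ 3 = 0 → ∑ z, (w z) ^ 3 = 0 →
      ∃ g ∈ Spor.threeJ3 F ω, ∃ c : F, c ≠ 0 ∧ (g : Matrix Spor.F9 Spor.F9 F) *ᵥ v = c • w := by
  obtain ⟨ι, h⟩ := exists_f4hom F hF ω hω
  refine ⟨?_, fun v w hv hw h1 h2 => ?_⟩
  · rw [← lines hF h]
    congr 1
    ext L
    constructor
    · rintro ⟨g, hg, rfl⟩
      exact ⟨_, ⟨g, hg, rfl⟩, rfl⟩
    · rintro ⟨_, ⟨g, hg, rfl⟩, rfl⟩
      exact ⟨g, hg, rfl⟩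
  · obtain ⟨g, hg, rfl⟩ := iso_orb hF h hv h1
    obtain ⟨g', hg', rfl⟩ := iso_orb hF h hw h2
    refine ⟨g' * g⁻¹, Subgroup.mul_mem _ hg' (Subgroup.inv_mem _ hg), 1, one_ne_zero, ?_⟩
    rw [one_smul, Matrix.mulVec_mulVec, ← Units.val_mul, inv_mul_cancel_right]

end Cfsg.Agent.LeU.J3
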